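import Mathlib

/-!
A linear map whose square is a nonzero scalar has a monomial basis.
-/

set_option autoImplicit false

namespace CfsgLib.MonomialInvol

variable {F V : Type*} [Field F] [AddCommGroup V] [Module F V] [FiniteDimensional F V]

/-- A monomial basis: `x` permutes the lines of the basis by an involution. -/
def HasMonomialBasis (x : Module.End F V) : Prop :=
  ∃ (ι : Type) (_ : Fintype ι) (_ : DecidableEq ι) (e : Module.Basis ι F V) (π : Equiv.Perm ι),
    π * π = 1 ∧ ∀ i, ∃ s : F, s ≠ 0 ∧ x (e i) = s • e (π i)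

theorem hasMonomialBasis_of_split {x : Module.End F V} (C D : Submodule F V) (y : V →ₗ[F] V)
    (hinj : ∀ a ∈ C, ∀ b ∈ C, ∀ d ∈ D, a + y b + d = 0 → a = 0 ∧ b = 0 ∧ d = 0)
    (hdim : Module.finrank F V ≤ Module.finrank F C + Module.finrank F C + Module.finrank F D)
    {u w δ : F} (hu : u ≠ 0) (hw : w ≠ 0) (hδ : δ ≠ 0) (h1 : ∀ a, x a = u • y a) (h2 : ∀ a, x (y a) = w • a)
    (h3 : ∀ d ∈ D, x d = δ • d) : HasMonomialBasis x := by
  classical
  let Φ : (C × C) × D →ₗ[F] V :=
    ((C.subtype).coprod (y ∘ₗ C.subtype)).coprod D.subtype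
  have hΦ : ∀ p, Φ p = (p.1.1 : V) + y p.1.2 + p.2 := fun p => rfl
  have hi : Function.Injective Φ := by
    rw [← LinearMap.ker_eq_bot, LinearMap.ker_eq_bot']
    rintro ⟨⟨a, b⟩, d⟩ hp
    rw [hΦ] at hp
    obtain ⟨ha, hb, hd⟩ := hinj a a.2 b b.2 d d.2 hp
    exact Prod.ext (Prod.ext (Subtype.ext ha) (Subtype.ext hb)) (Subtype.ext hd)
  have heq : Module.finrank F ((C × C) × D) = Module.finrank F V := by
    refine le_antisymm (LinearMap.finrank_le_finrank_of_injective hi) ?_
    rw [Module.finrank_prod, Module.finrank_prod]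
    exact hdim
  let Ψ : ((C × C) × D) ≃ₗ[F] V := LinearEquiv.ofBijective Φ
    ⟨hi, (LinearMap.injective_iff_surjective_of_finrank_eq_finrank heq).1 hi⟩
  let bC := Module.finBasis F C
  let bD := Module.finBasis F D
  let e := ((bC.prod bC).prod bD).map Ψ
  have e1 : ∀ i, e (Sum.inl (Sum.inl i)) = (bC i : V) := fun i => by
    show Φ (((bC.prod bC).prod bD) (Sum.inl (Sum.inl i))) = _
    simp [hΦ]
  have e2 : ∀ i, e (Sum.inl (Sum.inr i)) = y (bC i : V) := fun i => by
    show Φ (((bC.prod bC).prod bD) (Sum.inl (Sum.inr i))) = _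
    simp [hΦ]
  have e3 : ∀ i, e (Sum.inr i) = (bD i : V) := fun i => by
    show Φ (((bC.prod bC).prod bD) (Sum.inr i)) = _
    simp [hΦ]
  refine ⟨_, inferInstance, inferInstance, e, Equiv.sumCongr (Equiv.sumComm _ _) (Equiv.refl _), ?_, ?_⟩
  · refine Equiv.ext fun p => ?_
    rcases p with (i | i) | i <;> rfl
  · rintro ((i | i) | i)
    · exact ⟨u, hu, by rw [e1, h1]; exact congrArg (u • ·) (e2 i).symm⟩
    · exact ⟨w, hw, by rw [e2, h2]; exact congrArg (w • ·) (e1 i).symm⟩
    · exact ⟨δ, hδ, by rw [e3, h3 _ (bD i).2]; exact congrArg (δ • ·) (e3 i).symm⟩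

theorem hasMonomialBasis {x : Module.End F V} {z : F} (hz : z ≠ 0) (hx : ∀ a, x (x a) = z • a) :
    HasMonomialBasis x := by
  classical
  by_cases hsq : ∃ c : F, c * c = z
  · obtain ⟨c, hc⟩ := hsq
    have hc0 : c ≠ 0 := fun h => hz (by rw [← hc, h, zero_mul])
    by_cases h2 : (2 : F) = 0
    · -- characteristic two
      set y : Module.End F V := c⁻¹ • x with hy
      have hy2 : ∀ a, y (y a) = a := fun a => by
        simp only [hy, LinearMap.smul_apply, map_smul, hx, ← hc, smul_smul]
        rw [show c⁻¹ * (c⁻¹ * (c * c)) = 1 by field_simp, one_smul]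
      set N : Module.End F V := y - 1 with hN
      have hneg : ∀ a : V, a + a = 0 := fun a => by
        rw [← two_smul F a, h2, zero_smul]
      have hNy : ∀ a, y a = a + N a := fun a => by simp [hN]
      have hN2 : ∀ a, N (N a) = 0 := fun a => by
        simp only [hN, LinearMap.sub_apply, Module.End.one_apply, map_sub, hy2]
        rw [show a - y a - (y a - a) = (a + a) - (y a + y a) by abel, hneg, hneg, sub_zero]
      obtain ⟨C, hC⟩ := (LinearMap.ker N).exists_isCompl
      obtain ⟨D₀, hD₀⟩ := ((LinearMap.range N).comap (LinearMap.ker N).subtype).exists_isCompl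
      set D : Submodule F V := D₀.map (LinearMap.ker N).subtype with hD
      have hle : LinearMap.range N ≤ LinearMap.ker N := by
        rintro _ ⟨a, rfl⟩; exact LinearMap.mem_ker.2 (hN2 a)
      refine hasMonomialBasis_of_split C D y ?_ ?_ (u := c) (w := c) (δ := c) hc0 hc0 hc0
        (fun a => by simp [hy, smul_smul, hc0])
        (fun a => by simp [hy, map_smul, hx, ← hc, smul_smul, hc0]) ?_
      · intro a ha b hb d hd h
        obtain ⟨d', hd', rfl⟩ := hd
        have hNd : N (d' : V) = 0 := LinearMap.mem_ker.1 d'.2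
        have h' : a + b + N b + (d' : V) = 0 := by rw [← h, hNy]; simp only [Submodule.coe_subtype]; abel
        have h4 : N (a + b) = 0 := by
          have := congrArg N h'
          simp only [map_add, hN2, hNd, map_zero, add_zero] at this
          rw [map_add]; exact this
        have h5 : a + b = 0 := (Submodule.disjoint_def.1 hC.disjoint) _ (LinearMap.mem_ker.2 h4) (C.add_mem ha hb)
        rw [h5, zero_add] at h'
        have h6 : d' = 0 := by
          refine (Submodule.disjoint_def.1 hD₀.disjoint) d' ?_ hd'
          exact ⟨-b, by rw [map_neg]; exact neg_eq_of_add_eq_zero_right h'⟩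
        subst h6
        rw [ZeroMemClass.coe_zero, add_zero] at h'
        have hb0 : b = 0 := (Submodule.disjoint_def.1 hC.disjoint) _ (LinearMap.mem_ker.2 h') hb
        subst hb0
        exact ⟨by simpa using h5, rfl, rfl⟩
      · have k1 := Submodule.finrank_add_eq_of_isCompl hC
        have k2 := Submodule.finrank_add_eq_of_isCompl hD₀
        have k3 := LinearMap.finrank_range_add_finrank_ker N
        rw [(Submodule.comapSubtypeEquivOfLe hle).finrank_eq] at k2
        rw [hD, LinearEquiv.finrank_eq (Submodule.equivMapOfInjective _ (Submodule.injective_subtype _) D₀).symm]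
        omega
      · rintro _ ⟨d', -, rfl⟩
        have h7 : y (d' : V) = d' := by rw [hNy, LinearMap.mem_ker.1 d'.2, add_zero]
        have h8 : x (d' : V) = c • y (d' : V) := by simp [hy, smul_smul, hc0]
        rw [Submodule.coe_subtype, h8, h7]
    · -- two eigenspaces
      set P := LinearMap.ker (x - c • (1 : Module.End F V)) with hP
      set M := LinearMap.ker (x + c • (1 : Module.End F V)) with hM
      have hcompl : IsCompl P M := by
        constructor
        · rw [Submodule.disjoint_def]
          intro a h1 h3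
          rw [hP, LinearMap.mem_ker, LinearMap.sub_apply, LinearMap.smul_apply, Module.End.one_apply, sub_eq_zero] at h1
          rw [hM, LinearMap.mem_ker, LinearMap.add_apply, LinearMap.smul_apply, Module.End.one_apply, h1, ← add_smul, ← two_mul] at h3
          exact (smul_eq_zero.1 h3).resolve_left (mul_ne_zero h2 hc0)
        · rw [codisjoint_iff, eq_top_iff]
          intro a _
          refine Submodule.mem_sup.2 ⟨(2 * c)⁻¹ • (x a + c • a), ?_, (2 * c)⁻¹ • (c • a - x a), ?_, ?_⟩
          · rw [hP, LinearMap.mem_ker]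
            simp only [LinearMap.sub_apply, LinearMap.smul_apply, Module.End.one_apply, map_smul, map_add, hx, ← hc, smul_add, smul_smul]
            module
          · rw [hM, LinearMap.mem_ker]
            simp only [LinearMap.add_apply, LinearMap.smul_apply, Module.End.one_apply, map_smul, map_sub, hx, ← hc, smul_sub, smul_smul]
            module
          · rw [← smul_add, show x a + c • a + (c • a - x a) = (2 * c) • a by module, smul_smul, inv_mul_cancel₀ (mul_ne_zero h2 hc0), one_smul]
      let e := ((Module.finBasis F P).prod (Module.finBasis F M)).map (Submodule.prodEquivOfIsCompl P M hcompl)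
      refine ⟨_, inferInstance, inferInstance, e, 1, one_mul 1, ?_⟩
      rintro (i | i)
      · refine ⟨c, hc0, ?_⟩
        have e1 : e (Sum.inl i) = (Module.finBasis F P i : V) := by simp [e]
        have := LinearMap.mem_ker.1 (Module.finBasis F P i).2
        rw [LinearMap.sub_apply, sub_eq_zero, LinearMap.smul_apply, Module.End.one_apply] at this
        rw [Equiv.Perm.one_apply, e1, this]
      · refine ⟨-c, neg_ne_zero.2 hc0, ?_⟩
        have e1 : e (Sum.inr i) = (Module.finBasis F M i : V) := by simp [e]
        have := LinearMap.mem_ker.1 (Module.finBasis F M i).2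
        rw [LinearMap.add_apply, add_eq_zero_iff_eq_neg, LinearMap.smul_apply, Module.End.one_apply] at this
        rw [Equiv.Perm.one_apply, e1, this, neg_smul]
  · -- a complex structure
    let S : Set ℕ := {k | ∃ C : Submodule F V, Module.finrank F C = k ∧ ∀ a ∈ C, ∀ b ∈ C, a + x b = 0 → a = 0 ∧ b = 0}
    have hS : S.Finite := (Set.finite_Iic (Module.finrank F V)).subset fun k ⟨C, hk, _⟩ => hk ▸ Submodule.finrank_le C
    obtain ⟨k, ⟨C, hk, hC⟩, hmax⟩ := hS.exists_maximal ⟨0, ⊥, finrank_bot F V, fun a ha b hb _ => ⟨(Submodule.mem_bot F).1 ha, (Submodule.mem_bot F).1 hb⟩⟩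
    have hall : ∀ v : V, ∃ a ∈ C, ∃ b ∈ C, v = a + x b := by
      intro v
      by_contra hcon
      push Not at hcon
      have hvC : v ∉ C := fun h => hcon v h 0 C.zero_mem (by rw [map_zero, add_zero])
      set C' := C ⊔ Submodule.span F {v} with hC'
      have hlt : C < C' := lt_of_le_of_ne le_sup_left fun e => hvC (e ▸ Submodule.mem_sup_right (Submodule.mem_span_singleton_self v))
      have hk' := Submodule.finrank_lt_finrank_of_lt hlt
      have hmem : Module.finrank F C' ∈ S := by
        refine ⟨C', rfl, fun a ha b hb h => ?_⟩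
        obtain ⟨a₀, ha₀, v₁, hv₁, rfl⟩ := Submodule.mem_sup.1 ha
        obtain ⟨α, rfl⟩ := Submodule.mem_span_singleton.1 hv₁
        obtain ⟨b₀, hb₀, v₂, hv₂, rfl⟩ := Submodule.mem_sup.1 hb
        obtain ⟨β, rfl⟩ := Submodule.mem_span_singleton.1 hv₂
        have hW : ∀ s : F, ∀ a ∈ C, ∀ b ∈ C, s • v = a + x b → s = 0 := fun s a ha b hb e => by
          by_contra hs
          exact hcon (s⁻¹ • a) (C.smul_mem _ ha) (s⁻¹ • b) (C.smul_mem _ hb) (by rw [map_smul, ← smul_add, ← e, smul_smul, inv_mul_cancel₀ hs, one_smul])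
        have h' : α • v + β • x v = -a₀ - x b₀ := by
          simp only [map_add, map_smul] at h
          rw [← sub_eq_zero, ← h]; module
        have h'' : α • x v + (β * z) • v = -x a₀ - z • b₀ := by
          have := congrArg x h'
          simp only [map_add, map_sub, map_neg, map_smul, hx, smul_smul] at this
          exact this
        have hab : α * α - β * β * z = 0 := by
          refine hW _ (-(α • a₀) + (β * z) • b₀) (C.add_mem (C.neg_mem (C.smul_mem _ ha₀)) (C.smul_mem _ hb₀)) (-(α • b₀) + β • a₀)
            (C.add_mem (C.neg_mem (C.smul_mem _ hb₀)) (C.smul_mem _ ha₀)) ?_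
          calc (α * α - β * β * z) • v = α • (α • v + β • x v) - β • (α • x v + (β * z) • v) := by module
            _ = α • (-a₀ - x b₀) - β • (-x a₀ - z • b₀) := by rw [h', h'']
            _ = _ := by simp only [map_add, map_neg, map_smul]; module
        have hβ : β = 0 := by
          by_contra hβ
          refine hsq ⟨α / β, ?_⟩
          field_simp
          linear_combination hab
        subst hβ
        have hα : α = 0 := by simpa using hab
        subst hα
        simp only [zero_smul, add_zero] at h ⊢
        exact hC a₀ ha₀ b₀ hb₀ h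
      exact absurd (hmax hmem (by omega)) (by omega)
    refine hasMonomialBasis_of_split C ⊥ x ?_ ?_ (u := 1) (w := z) (δ := 1) one_ne_zero hz one_ne_zero
      (fun a => (one_smul F _).symm) hx (fun d hd => by rw [(Submodule.mem_bot F).1 hd, map_zero, smul_zero])
    · intro a ha b hb d hd h
      rw [(Submodule.mem_bot F).1 hd, add_zero] at h
      exact ⟨(hC a ha b hb h).1, (hC a ha b hb h).2, (Submodule.mem_bot F).1 hd⟩
    · rw [finrank_bot, add_zero, ← Module.finrank_prod]
      refine LinearMap.finrank_le_finrank_of_surjective (f := C.subtype.coprod (x ∘ₗ C.subtype)) ?_ |> le_trans (le_of_eq rfl)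
      intro v
      obtain ⟨a, ha, b, hb, rfl⟩ := hall v
      exact ⟨(⟨a, ha⟩, ⟨b, hb⟩), rfl⟩

end CfsgLib.MonomialInvol
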