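import Mathlib

/-!
An involution of `t * a` letters with any number of moved letters preserves a partition into `t` blocks of size `a`.
-/

set_option autoImplicit false

namespace CfsgLib.MonomialInvol

open Equiv

/-- Exchange `2l` and `2l+1` for `l < r`. -/
def spFun (N r : ℕ) (i : Fin N) : Fin N :=
  if h : (i : ℕ) < 2 * r ∧ 2 * r ≤ N then
    (if h2 : (i : ℕ) % 2 = 0 then ⟨(i : ℕ) + 1, by omega⟩ else ⟨(i : ℕ) - 1, by omega⟩)
  else i

theorem spFun_val (N r : ℕ) (i : Fin N) : (spFun N r i : ℕ) =
    if (i : ℕ) < 2 * r ∧ 2 * r ≤ N then (if (i : ℕ) % 2 = 0 then (i : ℕ) + 1 else (i : ℕ) - 1) else i := by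
  unfold spFun
  split_ifs <;> rfl

theorem spFun_invol (N r : ℕ) : Function.Involutive (spFun N r) := by
  intro i
  apply Fin.ext
  rw [spFun_val, spFun_val]
  split_ifs <;> omega

theorem spFun_lt_iff (N r : ℕ) (hr : 2 * r ≤ N) (i : Fin N) : (spFun N r i : ℕ) < 2 * r ↔ (i : ℕ) < 2 * r := by
  unfold spFun
  split_ifs <;> simp only <;> omega

theorem card_moved (N r : ℕ) (hr : 2 * r ≤ N) :
    (Finset.univ.filter fun i : Fin N => spFun N r i ≠ i).card = 2 * r := by
  have h : (Finset.univ.filter fun i : Fin N => spFun N r i ≠ i) = Finset.univ.filter fun i : Fin N => (i : ℕ) < 2 * r := by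
    refine Finset.filter_congr fun i _ => ?_
    unfold spFun
    split_ifs <;> simp [Fin.ext_iff] <;> omega
  rw [h, Fin.card_filter_val_lt]
  omega

theorem sum_min (b m : ℕ) : ∀ t : ℕ, (∑ j : Fin t, min b (m - (j : ℕ) * b)) = min m (t * b) := by
  intro t
  induction t with
  | zero => simp
  | succ t ih =>
    rw [Fin.sum_univ_castSucc]
    simp only [Fin.val_castSucc, Fin.val_last]
    rw [ih, Nat.succ_mul]
    omega

/-- An involution on `Fin t × Fin a` moving `2 * m` letters and permuting the blocks. -/
theorem exists_block_invol (t a m : ℕ) (hm : 2 * m ≤ t * a) :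
    ∃ (τ : Perm (Fin t × Fin a)) (σ : Perm (Fin t)), τ * τ = 1 ∧ τ.support.card = 2 * m ∧
      ∀ p, (τ p).1 = σ p.1 := by
  classical
  obtain ⟨b, hb⟩ : ∃ b, b = a / 2 := ⟨_, rfl⟩
  obtain ⟨s, r, hs, hr, hinv, hcount⟩ : ∃ (s : ℕ) (r : Fin t → ℕ), 2 * s ≤ t ∧ (∀ j, 2 * r j ≤ a) ∧
      (∀ j, r (spFun t s j) = r j) ∧ (∑ j : Fin t, if spFun t s j = j then 2 * r j else a) = 2 * m := by
    by_cases hle : m ≤ t * b
    · refine ⟨0, fun j => min b (m - (j : ℕ) * b), by omega, fun j => by dsimp only; omega, fun j => ?_, ?_⟩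
      · rw [show spFun t 0 j = j by unfold spFun; rw [dif_neg (by omega)]]
      · have e : ∀ j : Fin t, spFun t 0 j = j := fun j => by unfold spFun; rw [dif_neg (by omega)]
        simp only [e, if_true]
        rw [← Finset.mul_sum, sum_min]
        omega
    · have hodd : a = 2 * b + 1 := by
        rcases Nat.mod_two_eq_zero_or_one a with h | h
        · exfalso
          have : a = 2 * b := by omega
          rw [this] at hm
          have : t * (2 * b) = 2 * (t * b) := by ring
          omega
        · omega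
      obtain ⟨s, rfl⟩ : ∃ s, m = t * b + s := ⟨m - t * b, by omega⟩
      have hst : 2 * s ≤ t := by
        have : t * a = 2 * (t * b) + t := by rw [hodd]; ring
        omega
      refine ⟨s, fun j => if (j : ℕ) < 2 * s then 0 else b, hst, fun j => by dsimp only; split <;> omega, fun j => ?_, ?_⟩
      · simp only [spFun_lt_iff t s hst]
      · have e : ∀ j : Fin t, (if spFun t s j = j then 2 * (if (j : ℕ) < 2 * s then 0 else b) else a) =
            2 * b + (if (j : ℕ) < 2 * s then 1 else 0) := by
          intro j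
          unfold spFun
          split_ifs <;> simp [Fin.ext_iff] at * <;> omega
        simp only [e, Finset.sum_add_distrib, Finset.sum_boole, Fin.card_filter_val_lt, Finset.sum_const, Finset.card_univ,
          Fintype.card_fin, smul_eq_mul, Nat.cast_id]
        rw [Nat.min_eq_right hst]
        ring
  let f : Fin t × Fin a → Fin t × Fin a := fun p => (spFun t s p.1, spFun a (r p.1) p.2)
  have hf : Function.Involutive f := fun p => by
    refine Prod.ext (spFun_invol t s p.1) ?_
    show spFun a (r (spFun t s p.1)) (spFun a (r p.1) p.2) = p.2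
    rw [hinv]
    exact spFun_invol a (r p.1) p.2
  refine ⟨hf.toPerm f, (spFun_invol t s).toPerm _, Equiv.ext hf, ?_, fun p => rfl⟩
  rw [Perm.support, Finset.card_filter, Fintype.sum_prod_type]
  refine Eq.trans (Finset.sum_congr rfl fun j _ => ?_) hcount
  rw [← Finset.card_filter]
  split_ifs with h
  · have e : (Finset.univ.filter fun i : Fin a => hf.toPerm f (j, i) ≠ (j, i)) =
        Finset.univ.filter fun i : Fin a => spFun a (r j) i ≠ i := by
      refine Finset.filter_congr fun i _ => ?_
      show f (j, i) ≠ (j, i) ↔ _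
      simp [f, h]
    rw [e, card_moved a (r j) (hr j)]
  · rw [Finset.filter_true_of_mem fun i _ => ?_, Finset.card_univ, Fintype.card_fin]
    show f (j, i) ≠ (j, i)
    simp [f, h]

theorem cycleType_of_invol {α : Type*} [Fintype α] [DecidableEq α] {τ : Perm α} (h : τ * τ = 1) :
    τ.cycleType = Multiset.replicate (τ.support.card / 2) 2 := by
  have h2 : ∀ k ∈ τ.cycleType, k = 2 := fun k hk => by
    have h1 := Perm.dvd_of_mem_cycleType hk
    have h3 := Perm.two_le_of_mem_cycleType hk
    have h4 : orderOf τ ∣ 2 := orderOf_dvd_of_pow_eq_one (by rw [pow_two, h])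
    have := Nat.le_of_dvd two_pos (h1.trans h4)
    omega
  have hrep := Multiset.eq_replicate_of_mem h2
  have hs := τ.sum_cycleType
  rw [hrep, Multiset.sum_replicate, smul_eq_mul] at hs
  rw [← hs, Nat.mul_div_cancel _ two_pos]
  exact hrep

/-- Every involution on `t * a` letters permutes the blocks of some equipartition into `t` blocks. -/
theorem exists_equipartition {ι : Type*} [Fintype ι] [DecidableEq ι] (t a : ℕ) (hι : Fintype.card ι = t * a)
    (π : Perm ι) (hπ : π * π = 1) : ∃ (g : Fin t × Fin a ≃ ι) (σ : Perm (Fin t)), ∀ p, (g.symm (π (g p))).1 = σ p.1 := by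
  classical
  obtain ⟨h⟩ : Nonempty (Fin t × Fin a ≃ ι) := Fintype.card_eq.1 (by rw [hι, Fintype.card_prod, Fintype.card_fin, Fintype.card_fin])
  set π' : Perm (Fin t × Fin a) := h.symm.permCongr π with hπ'
  have hinv : π' * π' = 1 := by
    have h2 : ∀ y, π (π y) = y := fun y => Equiv.congr_fun hπ y
    exact Equiv.ext fun p => by simp [hπ', h2]
  have hm : 2 * (π'.support.card / 2) = π'.support.card := by
    have h1 := π'.sum_cycleType
    rw [cycleType_of_invol hinv, Multiset.sum_replicate, smul_eq_mul] at h1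
    omega
  obtain ⟨τ, σ, hτ, hc, hblock⟩ := exists_block_invol t a (π'.support.card / 2) (by
    rw [hm]
    refine (Finset.card_le_univ _).trans (le_of_eq ?_)
    rw [Fintype.card_prod, Fintype.card_fin, Fintype.card_fin])
  have hcyc : τ.cycleType = π'.cycleType := by
    rw [cycleType_of_invol hτ, cycleType_of_invol hinv, hc, hm]
  obtain ⟨c, hc'⟩ := isConj_iff.1 (Perm.isConj_iff_cycleType_eq.2 hcyc)
  refine ⟨c.trans h, σ, fun p => ?_⟩
  have e : π' (c p) = c (τ p) := by rw [← hc']; simp
  have e2 : (c.trans h).symm (π ((c.trans h) p)) = c.symm (π' (c p)) := rfl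
  rw [e2, e, Equiv.symm_apply_apply]
  exact hblock p

end CfsgLib.MonomialInvol
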